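import Mathlib.Algebra.Group.Subgroup.Basic
import Mathlib.Tactic.Group

/-!
Two conjugate involutions `z`, `a`, each lying in the centre of its own large subgroup `Q`, `R`:
if `a ∈ Q` then `z ∈ R`.
-/

set_option autoImplicit false

namespace CfsgLib.SymplecticType

variable {G : Type*} [Group G]

/-- `Q` behaves like the generalised Fitting subgroup of `C(z)` of symplectic type, exponent four. -/
structure Datum (Q : Subgroup G) (z : G) : Prop where
  mem : z ∈ Q
  sq : z * z = 1
  ne_one : z ≠ 1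
  central : ∀ q ∈ Q, q * z = z * q
  comm : ∀ p ∈ Q, ∀ q ∈ Q, p * q * p⁻¹ * q⁻¹ = 1 ∨ p * q * p⁻¹ * q⁻¹ = z
  sq_central : ∀ p ∈ Q, ∀ q ∈ Q, (p * p) * q = q * (p * p)
  four : ∀ p ∈ Q, (p * p) * (p * p) = 1
  uniq : ∀ u ∈ Q, (∀ q ∈ Q, u * q = q * u) → u * u = 1 → u = 1 ∨ u = z
  normalized : ∀ h : G, h * z = z * h → ∀ q ∈ Q, h * q * h⁻¹ ∈ Q
  self_cent : ∀ h : G, h * z = z * h → (∀ q ∈ Q, h * q = q * h) → h ∈ Q

theorem commute_of_comm_eq {p q : G} (h : p * q * p⁻¹ * q⁻¹ = 1) : p * q = q * p := by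
  calc p * q = (p * q * p⁻¹ * q⁻¹) * (q * p) := by group
    _ = q * p := by rw [h, one_mul]

theorem comm_eq_of_commute {p q : G} (h : p * q = q * p) : p * q * p⁻¹ * q⁻¹ = 1 := by
  rw [h]; group

theorem Datum.map {Q : Subgroup G} {z : G} (D : Datum Q z) (g : G) :
    Datum (Q.map (MulAut.conj g).toMonoidHom) (g * z * g⁻¹) := by
  have key : ∀ u v : G, (g * u * g⁻¹) * (g * v * g⁻¹) = g * (u * v) * g⁻¹ := fun u v => by group
  have inj : ∀ u v : G, g * u * g⁻¹ = g * v * g⁻¹ → u = v := fun u v h => by simpa using h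
  refine ⟨⟨z, D.mem, rfl⟩, by rw [key, D.sq]; group, ?_, ?_, ?_, ?_, ?_, ?_, ?_, ?_⟩
  · intro h
    exact D.ne_one (inj z 1 (by rw [h]; group))
  · rintro _ ⟨q, hq, rfl⟩
    show (g * q * g⁻¹) * _ = _ * (g * q * g⁻¹)
    rw [key, key, D.central q hq]
  · rintro _ ⟨p, hp, rfl⟩ _ ⟨q, hq, rfl⟩
    have he : (g * p * g⁻¹) * (g * q * g⁻¹) * (g * p * g⁻¹)⁻¹ * (g * q * g⁻¹)⁻¹ =
        g * (p * q * p⁻¹ * q⁻¹) * g⁻¹ := by group
    show (g * p * g⁻¹) * (g * q * g⁻¹) * (g * p * g⁻¹)⁻¹ * (g * q * g⁻¹)⁻¹ = 1 ∨ _ = _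
    rcases D.comm p hp q hq with h | h
    · left; rw [he, h]; group
    · right
      show (g * p * g⁻¹) * (g * q * g⁻¹) * (g * p * g⁻¹)⁻¹ * (g * q * g⁻¹)⁻¹ = _
      rw [he, h]
  · rintro _ ⟨p, hp, rfl⟩ _ ⟨q, hq, rfl⟩
    show (g * p * g⁻¹) * (g * p * g⁻¹) * (g * q * g⁻¹) = (g * q * g⁻¹) * ((g * p * g⁻¹) * (g * p * g⁻¹))
    rw [key, key, key, D.sq_central p hp q hq]
  · rintro _ ⟨p, hp, rfl⟩
    show (g * p * g⁻¹) * (g * p * g⁻¹) * ((g * p * g⁻¹) * (g * p * g⁻¹)) = 1
    rw [key, key, D.four p hp]; group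
  · rintro _ ⟨u, hu, rfl⟩ hc h2
    rcases D.uniq u hu (fun q hq => inj _ _ (by
        rw [← key, ← key]; exact hc _ ⟨q, hq, rfl⟩))
      (inj _ _ (by rw [← key]; show _ = g * 1 * g⁻¹; simpa using h2)) with h | h
    · left; show g * u * g⁻¹ = 1; rw [h]; group
    · right; show g * u * g⁻¹ = _; rw [h]
  · rintro h hh _ ⟨q, hq, rfl⟩
    refine ⟨(g⁻¹ * h * g) * q * (g⁻¹ * h * g)⁻¹, D.normalized _ (inj _ _ ?_) q hq, ?_⟩
    · calc g * ((g⁻¹ * h * g) * z) * g⁻¹ = h * (g * z * g⁻¹) := by group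
        _ = (g * z * g⁻¹) * h := hh
        _ = g * (z * (g⁻¹ * h * g)) * g⁻¹ := by group
    · show g * _ * g⁻¹ = h * (g * q * g⁻¹) * h⁻¹
      group
  · intro h hh hc
    refine ⟨g⁻¹ * h * g, D.self_cent _ (inj _ _ ?_) (fun q hq => inj _ _ ?_), ?_⟩
    · calc g * ((g⁻¹ * h * g) * z) * g⁻¹ = h * (g * z * g⁻¹) := by group
        _ = (g * z * g⁻¹) * h := hh
        _ = g * (z * (g⁻¹ * h * g)) * g⁻¹ := by group
    · calc g * ((g⁻¹ * h * g) * q) * g⁻¹ = h * (g * q * g⁻¹) := by group
        _ = (g * q * g⁻¹) * h := hc _ ⟨q, hq, rfl⟩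
        _ = g * (q * (g⁻¹ * h * g)) * g⁻¹ := by group
    · show g * (g⁻¹ * h * g) * g⁻¹ = h
      group

theorem Datum.exists_moving {Q : Subgroup G} {z a : G} (D : Datum Q z) (ha : a ∈ Q) (haz : a ≠ z)
    (ha1 : a ≠ 1) (ha2 : a * a = 1) : ∃ x ∈ Q, x * a * x⁻¹ = z * a := by
  by_contra h
  push Not at h
  have hc : ∀ q ∈ Q, a * q = q * a := by
    intro q hq
    rcases D.comm q hq a ha with e | e
    · exact (commute_of_comm_eq e).symm
    · exact absurd (by rw [← e]; group) (h q hq)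
  rcases D.uniq a ha hc ha2 with e | e
  · exact ha1 e
  · exact haz e

/-- If `a ∈ Q` then `z ∈ R`, when `R = g Q g⁻¹` and `a = g z g⁻¹`. -/
theorem mem_conj_of_mem {Q : Subgroup G} {z g : G} (D : Datum Q z) (hne : g * z * g⁻¹ ≠ z)
    (hin : g * z * g⁻¹ ∈ Q) : z ∈ Q.map (MulAut.conj g).toMonoidHom := by
  set a := g * z * g⁻¹ with ha
  set R := Q.map (MulAut.conj g).toMonoidHom with hR
  have E : Datum R a := D.map g
  by_contra hzR
  have haz : a * z = z * a := D.central a hin
  obtain ⟨x, hxQ, hxa⟩ := D.exists_moving hin hne E.ne_one E.sq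
  have hxz : x * z * x⁻¹ = z := by rw [D.central x hxQ]; group
  -- nothing fixing a sends z to z a
  have noswap : ∀ s : G, s * a * s⁻¹ = a → s * z * s⁻¹ ≠ z * a := by
    intro s hsa hsz
    set w := s * x * s with hw
    have hxza : x * (z * a) * x⁻¹ = a := by
      calc x * (z * a) * x⁻¹ = (x * z * x⁻¹) * (x * a * x⁻¹) := by group
        _ = a := by rw [hxz, hxa, ← mul_assoc, D.sq, one_mul]
    have hwz : w * z * w⁻¹ = a := by
      calc w * z * w⁻¹ = s * (x * (s * z * s⁻¹) * x⁻¹) * s⁻¹ := by rw [hw]; group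
        _ = a := by rw [hsz, hxza, hsa]
    have hwa : w * a * w⁻¹ = z := by
      calc w * a * w⁻¹ = s * (x * (s * a * s⁻¹) * x⁻¹) * s⁻¹ := by rw [hw]; group
        _ = s * (z * a) * s⁻¹ := by rw [hsa, hxa]
        _ = (s * z * s⁻¹) * (s * a * s⁻¹) := by group
        _ = z := by rw [hsz, hsa, mul_assoc, E.sq, mul_one]
    apply hzR
    have hc : (g⁻¹ * w) * z = z * (g⁻¹ * w) := by
      calc (g⁻¹ * w) * z = g⁻¹ * (w * z * w⁻¹) * w := by group
        _ = z * (g⁻¹ * w) := by rw [hwz, ha]; group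
    refine ⟨(g⁻¹ * w) * a * (g⁻¹ * w)⁻¹, D.normalized _ hc a hin, ?_⟩
    show g * _ * g⁻¹ = z
    rw [← hwa]; group
  -- z normalises R
  have hzn : ∀ r ∈ R, z * r * z ∈ R := by
    intro r hr
    have := E.normalized z haz.symm r hr
    rwa [inv_eq_of_mul_eq_one_right D.sq] at this
  let s : G → G := fun r => z * r * z * r⁻¹
  have hsR : ∀ r ∈ R, s r ∈ R := fun r hr => mul_mem (hzn r hr) (inv_mem hr)
  have hconj : ∀ r : G, r * z * r⁻¹ = z * s r := by
    intro r
    calc r * z * r⁻¹ = (z * z) * (r * z * r⁻¹) := by rw [D.sq, one_mul]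
      _ = z * s r := by simp only [s]; group
  have hinv : ∀ r : G, z * s r * z = (s r)⁻¹ := by
    intro r
    apply eq_inv_of_mul_eq_one_left
    calc z * s r * z * s r = (r * z * r⁻¹) * (r * z * r⁻¹) := by rw [hconj r]; group
      _ = r * (z * z) * r⁻¹ := by group
      _ = 1 := by rw [D.sq]; group
  have hcomm_of : ∀ r : G, s r = 1 → r * z = z * r := by
    intro r h
    calc r * z = (r * z * r⁻¹) * r := by group
      _ = z * r := by rw [hconj r, h, mul_one]
  -- key1
  have key1 : ∀ r ∈ R, (∀ q ∈ R, s r * q = q * s r) → r * z = z * r := by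
    intro r hr hcen
    by_cases h2 : s r * s r = 1
    · rcases E.uniq _ (hsR r hr) hcen h2 with h | h
      · exact hcomm_of r h
      · exfalso
        refine noswap r ?_ ?_
        · rw [E.central r hr]; group
        · rw [hconj r, h]
    · exfalso
      have hm := hsR r hr
      have hsa : s r * s r = a := by
        rcases E.uniq _ (mul_mem hm hm) (E.sq_central _ hm) (E.four _ hm) with h | h
        · exact absurd h h2
        · exact h
      have hinv2 : (s r)⁻¹ * (s r)⁻¹ = a := by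
        rw [← mul_inv_rev, hsa]; exact inv_eq_of_mul_eq_one_right E.sq
      refine noswap (s r) ?_ ?_
      · rw [E.central _ hm]; group
      · calc s r * z * (s r)⁻¹ = (z * z) * (s r * z * (s r)⁻¹) := by rw [D.sq, one_mul]
          _ = z * ((z * s r * z) * (s r)⁻¹) := by group
          _ = z * a := by rw [hinv r, hinv2]
  -- key2
  have key2 : ∀ r ∈ R, s r * z = z * s r ∧ s r * s r = 1 := by
    intro r hr
    have hm := hsR r hr
    have hc : s r * z = z * s r := by
      apply key1 _ hm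
      have : s (s r) = (s r)⁻¹ * (s r)⁻¹ := by
        show z * s r * z * (s r)⁻¹ = _
        rw [hinv r]
      intro q hq
      rw [this]
      exact E.sq_central _ (inv_mem hm) q hq
    refine ⟨hc, ?_⟩
    have h := hinv r
    rw [mul_assoc, hc, ← mul_assoc, D.sq, one_mul] at h
    exact mul_eq_one_iff_eq_inv.2 h
  -- key3
  have hQaR : ∀ u ∈ Q, u * a = a * u → ∀ r ∈ R, u * r * u⁻¹ ∈ R := fun u _ hua r hr =>
    E.normalized u hua r hr
  have key3 : ∀ e ∈ Q, e ∈ R → e = 1 ∨ e = a := by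
    intro e heQ heR
    have hQa : ∀ u ∈ Q, u * a = a * u → e * u = u * e := by
      intro u hu hua
      rcases D.comm e heQ u hu with h | h
      · exact commute_of_comm_eq h
      · exfalso
        apply hzR
        rw [← h, show e * u * e⁻¹ * u⁻¹ = e * (u * e⁻¹ * u⁻¹) by group]
        exact mul_mem heR (hQaR u hu hua _ (inv_mem heR))
    have hcen_one : ∀ f ∈ Q, f ∈ R → (∀ q ∈ Q, f * q = q * f) → f = 1 := by
      intro f hfQ hfR hfc
      by_contra hf1
      apply hzR
      by_cases h2 : f * f = 1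
      · rcases D.uniq f hfQ hfc h2 with h | h
        · exact absurd h hf1
        · exact h ▸ hfR
      · rcases D.uniq _ (mul_mem hfQ hfQ) (D.sq_central _ hfQ) (D.four _ hfQ) with h | h
        · exact absurd h h2
        · exact h ▸ mul_mem hfR hfR
    have hxx : x * a ≠ a * x := by
      intro h
      have : z * a = a := by rw [← hxa, h]; group
      exact D.ne_one (mul_eq_right.1 this)
    -- the behaviour outside the centraliser of a
    have hout : ∀ p ∈ Q, p * a ≠ a * p → (x⁻¹ * p) * a = a * (x⁻¹ * p) := by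
      intro p hp hpa
      have h1 : p * a * p⁻¹ = z * a := by
        rcases D.comm p hp a hin with h | h
        · exact absurd (commute_of_comm_eq h) hpa
        · calc p * a * p⁻¹ = (p * a * p⁻¹ * a⁻¹) * a := by group
            _ = z * a := by rw [h]
      calc (x⁻¹ * p) * a = x⁻¹ * (p * a * p⁻¹) * p := by group
        _ = x⁻¹ * (x * a * x⁻¹) * p := by rw [h1, hxa]
        _ = a * (x⁻¹ * p) := by group
    by_cases hex : e * x = x * e
    · left
      refine hcen_one e heQ heR fun p hp => ?_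
      by_cases hpa : p * a = a * p
      · exact hQa p hp hpa
      · have := hQa _ (mul_mem (inv_mem hxQ) hp) (hout p hp hpa)
        calc e * p = (e * x) * (x⁻¹ * p) := by group
          _ = x * (e * (x⁻¹ * p)) := by rw [hex]; group
          _ = p * e := by rw [this]; group
    · right
      have hex' : e * x * e⁻¹ = z * x := by
        rcases D.comm e heQ x hxQ with h | h
        · exact absurd (commute_of_comm_eq h) hex
        · calc e * x * e⁻¹ = (e * x * e⁻¹ * x⁻¹) * x := by group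
            _ = z * x := by rw [h]
      have hax : a * x * a⁻¹ = z * x := by
        have h1 : x * a * x⁻¹ * a⁻¹ = z := by rw [hxa]; group
        have h2 : a * x * a⁻¹ * x⁻¹ = z := by
          calc a * x * a⁻¹ * x⁻¹ = (x * a * x⁻¹ * a⁻¹)⁻¹ := by group
            _ = z := by rw [h1, inv_eq_of_mul_eq_one_right D.sq]
        calc a * x * a⁻¹ = (a * x * a⁻¹ * x⁻¹) * x := by group
          _ = z * x := by rw [h2]
      have hf : (a⁻¹ * e) * x = x * (a⁻¹ * e) := by
        calc (a⁻¹ * e) * x = a⁻¹ * (e * x * e⁻¹) * e := by group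
          _ = a⁻¹ * (a * x * a⁻¹) * e := by rw [hex', hax]
          _ = x * (a⁻¹ * e) := by group
      have hfa : ∀ u ∈ Q, u * a = a * u → (a⁻¹ * e) * u = u * (a⁻¹ * e) := by
        intro u hu hua
        calc (a⁻¹ * e) * u = a⁻¹ * (e * u) := by group
          _ = a⁻¹ * (u * a) * (a⁻¹ * e) := by rw [hQa u hu hua]; group
          _ = a⁻¹ * (a * u) * (a⁻¹ * e) := by rw [hua]
          _ = u * (a⁻¹ * e) := by group
      have := hcen_one (a⁻¹ * e) (mul_mem (inv_mem hin) heQ) (mul_mem (inv_mem E.mem) heR) (fun p hp => by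
        by_cases hpa : p * a = a * p
        · exact hfa p hp hpa
        · have := hfa _ (mul_mem (inv_mem hxQ) hp) (hout p hp hpa)
          calc (a⁻¹ * e) * p = ((a⁻¹ * e) * x) * (x⁻¹ * p) := by group
            _ = x * ((a⁻¹ * e) * (x⁻¹ * p)) := by rw [hf]; group
            _ = p * (a⁻¹ * e) := by rw [this]; group)
      exact (inv_mul_eq_one.1 this).symm
  have hcent1a : ∀ c : G, c = 1 ∨ c = a → ∀ q ∈ R, c * q = q * c := by
    rintro c (rfl | rfl) q hq
    · simp
    · exact (E.central q hq).symm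
  -- key4
  have key4 : ∀ d ∈ R, d * z = z * d → ∀ u ∈ Q, u * a = a * u →
      u * d * u⁻¹ * d⁻¹ = 1 ∨ u * d * u⁻¹ * d⁻¹ = a := by
    intro d hd hdz u hu hua
    refine key3 _ ?_ (mul_mem (hQaR u hu hua d hd) (inv_mem hd))
    rw [show u * d * u⁻¹ * d⁻¹ = u * (d * u⁻¹ * d⁻¹) by group]
    exact mul_mem hu (D.normalized d hdz _ (inv_mem hu))
  -- key5
  have key5 : ∀ r ∈ R, ∀ u ∈ Q, u * a = a * u → (u * r * u⁻¹ * r⁻¹) * z = z * (u * r * u⁻¹ * r⁻¹) := by
    intro r hr u hu hua
    set t := u * r * u⁻¹ * r⁻¹ with ht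
    have htR : t ∈ R := mul_mem (hQaR u hu hua r hr) (inv_mem hr)
    have hsm := hsR r hr
    have huz : u * z = z * u := D.central u hu
    obtain ⟨hsz, -⟩ := key2 r hr
    set c1 := u * s r * u⁻¹ * (s r)⁻¹ with hc1
    set c2 := s r * t * (s r)⁻¹ * t⁻¹ with hc2
    have h1 : c1 = 1 ∨ c1 = a := key4 _ hsm hsz u hu hua
    have h2 : c2 = 1 ∨ c2 = a := E.comm _ hsm _ htR
    have hst : s t = c1 * c2 := by
      have hzi : z⁻¹ = z := inv_eq_of_mul_eq_one_right D.sq
      have hzu : z * u * z⁻¹ = u := by rw [← huz]; group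
      have hzr : z * r * z⁻¹ = s r * r := by rw [hzi]; simp only [s]; group
      show z * t * z * t⁻¹ = c1 * c2
      calc z * t * z * t⁻¹ = (z * u * z⁻¹) * (z * r * z⁻¹) * (z * u * z⁻¹)⁻¹ * (z * r * z⁻¹)⁻¹ * t⁻¹ := by
            conv_lhs => arg 1; arg 2; rw [← hzi]
            rw [ht]; group
        _ = c1 * c2 := by rw [hzu, hzr, hc1, hc2, ht]; group
    apply key1 t htR
    intro q hq
    rw [hst]
    calc c1 * c2 * q = c1 * (q * c2) := by rw [mul_assoc, hcent1a c2 h2 q hq]
      _ = q * (c1 * c2) := by rw [← mul_assoc, hcent1a c1 h1 q hq, mul_assoc]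
  -- every element of R commutes with z
  suffices hall : ∀ r ∈ R, r * z = z * r by
    exact hzR (E.self_cent z haz.symm (fun r hr => (hall r hr).symm))
  intro r hr
  by_cases hnab : ∃ u ∈ Q, u * a = a * u ∧ u * u = z
  · obtain ⟨u, hu, hua, huu⟩ := hnab
    set t := u * r * u⁻¹ * r⁻¹ with ht
    have htR : t ∈ R := mul_mem (hQaR u hu hua r hr) (inv_mem hr)
    set c := u * t * u⁻¹ * t⁻¹ with hc
    have hc1 : c = 1 ∨ c = a := key4 t htR (key5 r hr u hu hua) u hu hua
    apply key1 r hr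
    have : s r = c * (t * t) := by
      show z * r * z * r⁻¹ = c * (t * t)
      calc z * r * z * r⁻¹ = z * r * z⁻¹ * r⁻¹ := by rw [inv_eq_of_mul_eq_one_right D.sq]
        _ = (u * u) * r * (u * u)⁻¹ * r⁻¹ := by rw [huu]
        _ = c * (t * t) := by rw [hc, ht]; group
    intro q hq
    rw [this]
    calc c * (t * t) * q = c * (q * (t * t)) := by rw [mul_assoc, E.sq_central t htR q hq]
      _ = q * (c * (t * t)) := by rw [← mul_assoc, hcent1a c hc1 q hq, mul_assoc]
  by_cases hab : ∃ u ∈ Q, ∃ v ∈ Q, u * a = a * u ∧ v * a = a * v ∧ u * v ≠ v * u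
  · obtain ⟨u, hu, v, hv, hua, hva, huv⟩ := hab
    set tu := u * r * u⁻¹ * r⁻¹ with htu
    set tv := v * r * v⁻¹ * r⁻¹ with htv
    have htuR : tu ∈ R := mul_mem (hQaR u hu hua r hr) (inv_mem hr)
    have htvR : tv ∈ R := mul_mem (hQaR v hv hva r hr) (inv_mem hr)
    have htuz := key5 r hr u hu hua
    have htvz := key5 r hr v hv hva
    set c1 := u * tv * u⁻¹ * tv⁻¹ with hc1d
    set c2 := v * tu * v⁻¹ * tu⁻¹ with hc2d
    set c3 := tu * tv * tu⁻¹ * tv⁻¹ with hc3d
    have hc1 : c1 = 1 ∨ c1 = a := key4 tv htvR htvz u hu hua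
    have hc2 : c2 = 1 ∨ c2 = a := key4 tu htuR htuz v hv hva
    have hc3 : c3 = 1 ∨ c3 = a := E.comm tu htuR tv htvR
    have hvu : u * v = z * (v * u) := by
      rcases D.comm u hu v hv with h | h
      · exact absurd (commute_of_comm_eq h) huv
      · rw [← h]; group
    have e1 : (u * v) * r * (u * v)⁻¹ = c1 * (tv * tu * r) := by rw [hc1d, htv, htu]; group
    have e2 : (v * u) * r * (v * u)⁻¹ = c2 * c3 * (tv * tu * r) := by
      rw [hc2d, hc3d, htv, htu]; group
    have hz1 : ∀ c : G, c = 1 ∨ c = a → z * c = c * z := by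
      rintro c (rfl | rfl)
      · simp
      · exact haz.symm
    have e4 : s r = (tv * tu)⁻¹ * ((c2 * c3)⁻¹ * c1) * (tv * tu) := by
      have hcomz : Commute z (c2 * c3 * (tv * tu)) :=
        (Commute.mul_right (hz1 c2 hc2) (hz1 c3 hc3)).mul_right
          (Commute.mul_right htvz.symm htuz.symm)
      have h : c1 * (tv * tu * r) = (c2 * c3 * (tv * tu)) * (z * r * z⁻¹) := by
        calc c1 * (tv * tu * r) = (u * v) * r * (u * v)⁻¹ := e1.symm
          _ = z * ((v * u) * r * (v * u)⁻¹) * z⁻¹ := by rw [hvu]; group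
          _ = (z * (c2 * c3 * (tv * tu))) * r * z⁻¹ := by rw [e2]; group
          _ = (c2 * c3 * (tv * tu)) * (z * r * z⁻¹) := by rw [hcomz.eq]; group
      show z * r * z * r⁻¹ = _
      calc z * r * z * r⁻¹ = z * r * z⁻¹ * r⁻¹ := by rw [inv_eq_of_mul_eq_one_right D.sq]
        _ = (c2 * c3 * (tv * tu))⁻¹ * ((c2 * c3 * (tv * tu)) * (z * r * z⁻¹)) * r⁻¹ := by group
        _ = _ := by rw [← h]; group
    apply key1 r hr
    intro q hq
    have hC : ∀ p ∈ R, ((c2 * c3)⁻¹ * c1) * p = p * ((c2 * c3)⁻¹ * c1) := by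
      intro p hp
      have k1 : Commute c1 p := hcent1a c1 hc1 p hp
      have k2 : Commute (c2 * c3) p := Commute.mul_left (hcent1a c2 hc2 p hp) (hcent1a c3 hc3 p hp)
      exact (k2.inv_left.mul_left k1).eq
    rw [e4]
    have hs0 : (tv * tu)⁻¹ * ((c2 * c3)⁻¹ * c1) * (tv * tu) = (c2 * c3)⁻¹ * c1 := by
      rw [mul_assoc, hC _ (mul_mem htvR htuR)]; group
    rw [hs0]
    exact hC q hq
  -- the centraliser of a in Q is elementary abelian of order four
  push Not at hnab hab
  have hQa : ∀ q ∈ Q, q * a = a * q → q * q = 1 := by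
    intro q hq hqa
    by_contra h2
    rcases D.uniq _ (mul_mem hq hq) (D.sq_central q hq) (D.four q hq) with h | h
    · exact h2 h
    · exact hnab q hq hqa h
  have hxpow : ∀ p ∈ Q, p * a ≠ a * p → (x⁻¹ * p) * a = a * (x⁻¹ * p) := by
    intro p hp hpa
    have h1 : p * a * p⁻¹ = z * a := by
      rcases D.comm p hp a hin with h | h
      · exact absurd (commute_of_comm_eq h) hpa
      · calc p * a * p⁻¹ = (p * a * p⁻¹ * a⁻¹) * a := by group
          _ = z * a := by rw [h]
    calc (x⁻¹ * p) * a = x⁻¹ * (p * a * p⁻¹) * p := by group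
      _ = x⁻¹ * (x * a * x⁻¹) * p := by rw [h1, hxa]
      _ = a * (x⁻¹ * p) := by group
  have hxna : x * a ≠ a * x := by
    intro h
    have : z * a = a := by rw [← hxa, h]; group
    exact D.ne_one (mul_eq_right.1 this)
  -- an element of order four with square z
  obtain ⟨y, hy, hya, hyy⟩ : ∃ y ∈ Q, y * a ≠ a * y ∧ y * y = z := by
    rcases D.uniq _ (mul_mem hxQ hxQ) (D.sq_central x hxQ) (D.four x hxQ) with h | h
    · refine ⟨x * a, mul_mem hxQ hin, ?_, ?_⟩
      · intro e
        apply hxna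
        exact mul_right_cancel (b := a) (e.trans (mul_assoc a x a).symm)
      · calc x * a * (x * a) = (x * x) * (x⁻¹ * a * x) * a := by group
          _ = (x⁻¹ * a * x) * a := by rw [h, one_mul]
          _ = (x * a * x⁻¹) * a := by
            rw [show x⁻¹ = x from inv_eq_of_mul_eq_one_right h]
          _ = z := by rw [hxa, mul_assoc, E.sq, mul_one]
    · exact ⟨x, hxQ, hxna, h⟩
  have hdecomp : ∀ p ∈ Q, p * a = a * p ∨ (y⁻¹ * p) * a = a * (y⁻¹ * p) := by
    intro p hp
    by_cases hpa : p * a = a * p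
    · exact Or.inl hpa
    · right
      have h1 := hxpow p hp hpa
      have h2 := hxpow y hy hya
      have : Commute ((x⁻¹ * y)⁻¹ * (x⁻¹ * p)) a := (Commute.inv_left h2).mul_left h1
      have he : (x⁻¹ * y)⁻¹ * (x⁻¹ * p) = y⁻¹ * p := by group
      rw [he] at this
      exact this.eq
  -- (E1) squares: p² ≠ 1 forces p ∈ {y, y z}; (E2) involutions commuting with y are central
  have hcenQa : ∀ q ∈ Q, q * a = a * q → q * y = y * q → ∀ p ∈ Q, q * p = p * q := by
    intro q hq hqa hqy p hp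
    rcases hdecomp p hp with h | h
    · exact hab q hq p hp hqa h
    · calc q * p = (q * y) * (y⁻¹ * p) := by group
        _ = y * (q * (y⁻¹ * p)) := by rw [hqy]; group
        _ = p * q := by rw [hab q hq _ (mul_mem (inv_mem hy) hp) hqa h]; group
  have E1 : ∀ p ∈ Q, p * p ≠ 1 → p = y ∨ p = y * z := by
    intro p hp hp2
    have hpa : ¬ p * a = a * p := fun h => hp2 (hQa p hp h)
    have hq := (hdecomp p hp).resolve_left hpa
    set q := y⁻¹ * p with hqd
    have hqQ : q ∈ Q := mul_mem (inv_mem hy) hp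
    have hpy : p = y * q := by rw [hqd]; group
    rcases D.comm q hqQ y hy with h | h
    · have hqy := commute_of_comm_eq h
      rcases D.uniq q hqQ (hcenQa q hqQ hq hqy) (hQa q hqQ hq) with h' | h'
      · left; rw [hpy, h', mul_one]
      · right; rw [hpy, h']
    · exfalso
      apply hp2
      have h1 : q * y = z * y * q := by
        calc q * y = (q * y * q⁻¹ * y⁻¹) * y * q := by group
          _ = z * y * q := by rw [h]
      calc p * p = y * (q * y) * q := by rw [hpy]; group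
        _ = (y * z) * y * (q * q) := by rw [h1]; group
        _ = (z * (y * y)) * (q * q) := by rw [D.central y hy]; group
        _ = 1 := by rw [hyy, D.sq, hQa q hqQ hq, one_mul]
  have E2 : ∀ e ∈ Q, e * e = 1 → e * y = y * e → ∀ p ∈ Q, e * p = p * e := by
    intro e he he2 hey
    rcases hdecomp e he with h | h
    · exact hcenQa e he h hey
    · exfalso
      set q := y⁻¹ * e with hqd
      have hqy : q * y = y * q := by
        rw [hqd]; calc y⁻¹ * e * y = y⁻¹ * (e * y) := by group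
          _ = y * (y⁻¹ * e) := by rw [hey]; group
      have hq2 := hQa q (mul_mem (inv_mem hy) he) h
      apply D.ne_one
      calc z = (y * y) * (q * q) := by rw [hyy, hq2, mul_one]
        _ = y * (y * q) * q := by group
        _ = y * (q * y) * q := by rw [hqy]
        _ = (y * q) * (y * q) := by group
        _ = e * e := by rw [hqd]; group
        _ = 1 := he2
  -- transport to R
  set Y := g * y * g⁻¹ with hY
  have hYR : Y ∈ R := ⟨y, hy, rfl⟩
  have hYz : Y * z = z * Y := by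
    apply key1 Y hYR
    have hzy : z * Y * z ∈ R := hzn Y hYR
    obtain ⟨p, hp, hpe⟩ := hzy
    have hpe' : g * p * g⁻¹ = z * Y * z := hpe
    have hp2 : p * p ≠ 1 := by
      intro h
      apply D.ne_one
      have h1 : (z * Y * z) * (z * Y * z) = 1 := by
        calc (z * Y * z) * (z * Y * z) = g * (p * p) * g⁻¹ := by rw [← hpe']; group
          _ = 1 := by rw [h]; group
      have h2 : Y * Y = 1 := by
        calc Y * Y = z⁻¹ * ((z * Y * z) * z⁻¹ * z⁻¹ * (z * Y * z)) * z⁻¹ := by group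
          _ = z⁻¹ * ((z * Y * z) * (z * z)⁻¹ * (z * Y * z)) * z⁻¹ := by group
          _ = z⁻¹ * ((z * Y * z) * (z * Y * z)) * z⁻¹ := by rw [D.sq]; group
          _ = (z * z)⁻¹ := by rw [h1]; group
          _ = 1 := by rw [D.sq]; group
      have h3 : g * z * g⁻¹ = 1 := by
        rw [← hyy, ← h2, hY]; group
      simpa using h3
    have hsY : s Y = 1 ∨ s Y = a := by
      rcases E1 p hp hp2 with h | h
      · left; show z * Y * z * Y⁻¹ = 1; rw [← hpe', h, hY]; group
      · right; show z * Y * z * Y⁻¹ = a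
        rw [← hpe', h, hY, D.central y hy, ha]; group
    exact hcent1a _ hsY
  apply key1 r hr
  obtain ⟨hsz, hs2⟩ := key2 r hr
  have hsm := hsR r hr
  -- s r commutes with every element of R centralising z
  have hsY : s r * Y = Y * s r := by
    apply commute_of_comm_eq
    set c := r * Y * r⁻¹ * Y⁻¹ with hcd
    have hc : c = 1 ∨ c = a := E.comm r hr Y hYR
    have hzc : z * c * z⁻¹ = c := by
      rcases hc with h | h <;> rw [h]
      · group
      · rw [← haz]; group
    have hzi : z⁻¹ = z := inv_eq_of_mul_eq_one_right D.sq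
    have hzY : z * Y * z⁻¹ = Y := by rw [← hYz]; group
    have hzr : z * r * z⁻¹ = s r * r := by rw [hzi]; simp only [s]; group
    have h : z * c * z⁻¹ = (s r * c * (s r)⁻¹) * (s r * Y * (s r)⁻¹ * Y⁻¹) := by
      calc z * c * z⁻¹ = (z * r * z⁻¹) * (z * Y * z⁻¹) * (z * r * z⁻¹)⁻¹ * (z * Y * z⁻¹)⁻¹ := by
            rw [hcd]; group
        _ = _ := by rw [hzY, hzr, hcd]; group
    rw [hzc] at h
    have hcs : s r * c * (s r)⁻¹ = c := by
      rw [← hcent1a c hc _ hsm]; group
    rw [hcs] at h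
    exact mul_eq_left.1 h.symm
  obtain ⟨p, hp, hpe⟩ := hsm
  have hpe' : g * p * g⁻¹ = s r := hpe
  have hp2 : p * p = 1 := by
    have : g * (p * p) * g⁻¹ = 1 := by
      rw [← hs2, ← hpe']; group
    simpa using this
  have hpy : p * y = y * p := by
    have : g * (p * y) * g⁻¹ = g * (y * p) * g⁻¹ := by
      calc g * (p * y) * g⁻¹ = (g * p * g⁻¹) * Y := by rw [hY]; group
        _ = Y * (g * p * g⁻¹) := by rw [hpe', hsY]
        _ = g * (y * p) * g⁻¹ := by rw [hY]; group
    simpa using this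
  have hcen := E2 p hp hp2 hpy
  rintro _ ⟨q, hq, rfl⟩
  show s r * (g * q * g⁻¹) = (g * q * g⁻¹) * s r
  rw [← hpe']
  calc g * p * g⁻¹ * (g * q * g⁻¹) = g * (p * q) * g⁻¹ := by group
    _ = g * q * g⁻¹ * (g * p * g⁻¹) := by rw [hcen q hq]; group

end CfsgLib.SymplecticType
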