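import Cfsg.Prelude.Def_ClassificationK
import Cfsg.Agent.Eq.Def_ClassificationK
import Mathlib.GroupTheory.Nilpotent

/-!
2-groups of exponent four in which every characteristic abelian subgroup is cyclic.
-/

set_option autoImplicit false

namespace CfsgLib.SymplecticType

open Cfsg
open scoped commutatorElement

/-- The only central involution and the shape of the group. -/
def IsNearExtraspecial (P : Type*) [Group P] : Prop :=
  (∀ a b : P, ⁅a, b⁆ ∈ Subgroup.center P ∧ ⁅a, b⁆ * ⁅a, b⁆ = 1) ∧
  (∀ a : P, a * a ∈ Subgroup.center P) ∧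
  (∀ u v : P, u ∈ Subgroup.center P → v ∈ Subgroup.center P → u * u = 1 → v * v = 1 →
    u ≠ 1 → v ≠ 1 → u = v)

theorem sq_eq_one_eq {A : Type*} [Group A] [Finite A] [IsCyclic A] {u v : A}
    (hu : u * u = 1) (hv : v * v = 1) (hu1 : u ≠ 1) (hv1 : v ≠ 1) : u = v := by
  classical
  letI := Fintype.ofFinite A
  have h := IsCyclic.card_pow_eq_one_le (α := A) (n := 2) (by norm_num)
  by_contra hne
  have hs : ({1, u, v} : Finset A) ⊆ Finset.univ.filter (fun a => a ^ 2 = 1) := by
    intro a ha
    simp only [Finset.mem_insert, Finset.mem_singleton] at ha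
    rcases ha with rfl | rfl | rfl <;> simp [pow_two, hu, hv]
  have h3 : ({1, u, v} : Finset A).card = 3 := by simp [hne, hu1.symm, hv1.symm]
  have := Finset.card_le_card hs
  omega

theorem pow_four_eq {P : Type*} [Group P] (h4 : ∀ p : P, p ^ 4 = 1) (p : P) :
    (p * p) * (p * p) = 1 := by
  have := h4 p
  rwa [show (4 : ℕ) = 2 + 2 from rfl, pow_add, pow_two] at this

theorem sq_central_of_class_two {P : Type*} [Group P] (h4 : ∀ p : P, p ^ 4 = 1)
    (hc : ∀ a b : P, ⁅a, b⁆ ∈ Subgroup.center P) :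
    (∀ a b : P, ⁅a, b⁆ * ⁅a, b⁆ = 1) ∧ ∀ a : P, a * a ∈ Subgroup.center P := by
  have hcs : ∀ a b p : P, ⁅a, b⁆ * p = p * ⁅a, b⁆ := fun a b p =>
    (Subgroup.mem_center_iff.1 (hc a b) p).symm
  have hmul : ∀ a b c : P, ⁅a * b, c⁆ = ⁅a, c⁆ * ⁅b, c⁆ := by
    intro a b c
    calc ⁅a * b, c⁆ = a * (⁅b, c⁆ * (c * a⁻¹ * c⁻¹)) := by simp only [commutatorElement_def]; group
      _ = ⁅b, c⁆ * a * (c * a⁻¹ * c⁻¹) := by rw [← mul_assoc, hcs b c a]
      _ = ⁅b, c⁆ * ⁅a, c⁆ := by simp only [commutatorElement_def]; group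
      _ = ⁅a, c⁆ * ⁅b, c⁆ := hcs b c _
  have hsq : ∀ a b : P, ⁅a, b⁆ * ⁅a, b⁆ = 1 := by
    intro a b
    -- (ab)² = ⁅a,b⁆⁻¹ a² b²
    set c := ⁅a, b⁆
    have h1 : (a * b) * (a * b) = c⁻¹ * ((a * a) * (b * b)) := by
      have h2 : b * a = c⁻¹ * (a * b) := by simp only [c, commutatorElement_def]; group
      calc (a * b) * (a * b) = a * (b * a) * b := by group
        _ = a * c⁻¹ * (a * b) * b := by rw [h2]; group
        _ = c⁻¹ * a * (a * b) * b := by
          rw [(Subgroup.mem_center_iff.1 (Subgroup.inv_mem _ (hc a b)) a)]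
        _ = c⁻¹ * ((a * a) * (b * b)) := by group
    have h3 : (b * b) * (a * a) = (c⁻¹ * c⁻¹ * (c⁻¹ * c⁻¹)) * ((a * a) * (b * b)) := by
      have : ⁅a * a, b * b⁆ = (c * c) * (c * c) := by
        have hr : ∀ u v w : P, ⁅u, v * w⁆ = ⁅u, v⁆ * ⁅u, w⁆ := by
          intro u v w
          rw [← commutatorElement_inv, hmul, mul_inv_rev, commutatorElement_inv,
            commutatorElement_inv, hcs u w]
        rw [hmul, hr]
      calc (b * b) * (a * a) = ⁅a * a, b * b⁆⁻¹ * ((a * a) * (b * b)) := by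
            simp only [commutatorElement_def, pow_two, mul_inv_rev, inv_inv, ← mul_assoc, inv_mul_cancel_right]
        _ = _ := by rw [this]; group
    have hc4 : (c * c) * (c * c) = 1 := pow_four_eq h4 _
    have hc4' : c⁻¹ * c⁻¹ * (c⁻¹ * c⁻¹) = 1 := by
      have := congrArg (·⁻¹) hc4
      simpa [mul_assoc] using this
    rw [hc4', one_mul] at h3
    have h5 := pow_four_eq h4 (a * b)
    rw [h1] at h5
    have h6 : (a * a * (b * b)) * c⁻¹ = c⁻¹ * (a * a * (b * b)) :=
      Subgroup.mem_center_iff.1 (Subgroup.inv_mem _ (hc a b)) _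
    have h7 : c⁻¹ * c⁻¹ * ((a * a * (b * b)) * (a * a * (b * b))) = 1 := by
      calc c⁻¹ * c⁻¹ * ((a * a * (b * b)) * (a * a * (b * b)))
          = c⁻¹ * (c⁻¹ * (a * a * (b * b))) * (a * a * (b * b)) := by group
        _ = c⁻¹ * ((a * a * (b * b)) * c⁻¹) * (a * a * (b * b)) := by rw [h6]
        _ = c⁻¹ * (a * a * (b * b)) * (c⁻¹ * (a * a * (b * b))) := by group
        _ = 1 := h5
    have h8 : (a * a * (b * b)) * (a * a * (b * b)) = 1 := by
      calc (a * a * (b * b)) * (a * a * (b * b))
          = (a * a) * ((b * b) * (a * a)) * (b * b) := by group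
        _ = ((a * a) * (a * a)) * ((b * b) * (b * b)) := by rw [h3]; group
        _ = 1 := by rw [pow_four_eq h4, pow_four_eq h4, one_mul]
    rw [h8, mul_one] at h7
    have := congrArg (·⁻¹) h7
    simpa using this
  refine ⟨hsq, fun a => ?_⟩
  rw [Subgroup.mem_center_iff]
  intro b
  have : ⁅a * a, b⁆ = 1 := by rw [hmul, hsq]
  exact (commutatorElement_eq_one_iff_mul_comm.1 this).symm

theorem exists_central_mem {P : Type*} [Group P] [Finite P] (hP : IsPGroup 2 P)
    (N : Subgroup P) [N.Normal] (hN : N ≠ ⊥) : ∃ u ∈ N, u ∈ Subgroup.center P ∧ u ≠ 1 := by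
  haveI : Fact (Nat.Prime 2) := ⟨Nat.prime_two⟩
  haveI : Nontrivial ↥N := (Subgroup.nontrivial_iff_ne_bot N).2 hN
  obtain ⟨k, hk⟩ := (hP.to_subgroup N).exists_card_eq
  have h2 : 2 ∣ Nat.card ↥N := by
    cases k with
    | zero =>
      have : 1 < Nat.card ↥N := Finite.one_lt_card
      simp [hk] at this
    | succ k => exact ⟨2 ^ k, by rw [hk, pow_succ]; ring⟩
  have hPc : IsPGroup 2 (ConjAct P) := hP
  obtain ⟨u, hu, hu1⟩ := hPc.exists_fixed_point_of_prime_dvd_card_of_fixed_point ↥N h2
    (a := 1) (fun g => smul_one g)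
  refine ⟨u, u.2, ?_, fun h => hu1 (Subtype.ext h).symm⟩
  rw [Subgroup.mem_center_iff]
  intro g
  have h : g * (u : P) * g⁻¹ = u := congrArg Subtype.val (hu (ConjAct.toConjAct g))
  calc g * (u : P) = g * u * g⁻¹ * g := by group
    _ = u * g := by rw [h]

theorem isNearExtraspecial_aux : ∀ n : ℕ, ∀ (P : Type*) [Group P] [Finite P], Nat.card P = n →
    IsPGroup 2 P → (∀ p : P, p ^ 4 = 1) →
    (∀ A : Subgroup P, A.Characteristic → IsMulCommutative A → IsCyclic A) →
    IsNearExtraspecial P := by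
  intro n
  induction n using Nat.strong_induction_on with
  | _ n ih =>
    intro P _ _ hn hP h4 hsymp
    haveI : Fact (Nat.Prime 2) := ⟨Nat.prime_two⟩
    haveI hnil : Group.IsNilpotent P := hP.isNilpotent
    haveI hZcyc : IsCyclic ↥(Subgroup.center P) := hsymp _ inferInstance inferInstance
    have huniq : ∀ u v : P, u ∈ Subgroup.center P → v ∈ Subgroup.center P → u * u = 1 → v * v = 1 →
        u ≠ 1 → v ≠ 1 → u = v := by
      intro u v hu hv hu2 hv2 hu1 hv1
      exact congrArg Subtype.val (sq_eq_one_eq (u := (⟨u, hu⟩ : ↥(Subgroup.center P))) (v := ⟨v, hv⟩)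
        (Subtype.ext hu2) (Subtype.ext hv2) (fun h => hu1 (congrArg Subtype.val h))
        (fun h => hv1 (congrArg Subtype.val h)))
    by_cases hclass : ∀ a b : P, ⁅a, b⁆ ∈ Subgroup.center P
    · exact ⟨fun a b => ⟨hclass a b, (sq_central_of_class_two h4 hclass).1 a b⟩,
        (sq_central_of_class_two h4 hclass).2, huniq⟩
    exfalso
    -- a non-central element of the commutator subgroup in the second centre
    set π := QuotientGroup.mk' (Subgroup.center P) with hπ
    let Z2 : Subgroup P := (Subgroup.center (P ⧸ Subgroup.center P)).comap π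
    let A : Subgroup P := commutator P ⊓ Z2
    have hne : (commutator P).map π ≠ ⊥ := by
      intro h
      apply hclass
      intro a b
      rw [← QuotientGroup.eq_one_iff, ← QuotientGroup.mk'_apply, ← Subgroup.mem_bot, ← h]
      exact ⟨_, Subgroup.commutator_mem_commutator (Subgroup.mem_top a) (Subgroup.mem_top b), rfl⟩
    haveI : Nontrivial ↥((commutator P).map π) := (Subgroup.nontrivial_iff_ne_bot _).2 hne
    obtain ⟨a, haP, haZ2, haZ⟩ : ∃ a, a ∈ commutator P ∧ a ∈ Z2 ∧ a ∉ Subgroup.center P := by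
      have hnn : ((commutator P).map π).Normal :=
        (inferInstance : (commutator P).Normal).map π (QuotientGroup.mk'_surjective _)
      haveI := hnn
      haveI : Group.IsNilpotent (P ⧸ Subgroup.center P) := inferInstance
      obtain ⟨q, hq, hqc, hq1⟩ := exists_central_mem
        (hP.to_quotient (Subgroup.center P)) ((commutator P).map π) hne
      obtain ⟨a, ha, rfl⟩ := hq
      exact ⟨a, ha, hqc, fun h => hq1 ((QuotientGroup.eq_one_iff a).2 h)⟩
    have haA : a ∈ A := ⟨haP, haZ2⟩
    have hAab : IsMulCommutative ↥A := by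
      refine ⟨⟨fun u v => Subtype.ext ?_⟩⟩
      have h : commutator P ≤ Subgroup.centralizer ({(v : P)} : Set P) := by
        rw [commutator_def, Subgroup.commutator_le]
        intro p _ q _
        have hv : ∀ r : P, ⁅r, (v : P)⁆ ∈ Subgroup.center P := fun r => by
          rw [← QuotientGroup.eq_one_iff, ← QuotientGroup.mk'_apply, map_commutatorElement,
            commutatorElement_eq_one_iff_mul_comm]
          exact Subgroup.mem_center_iff.1 (Subgroup.mem_inf.1 v.2).2 _
        -- the map r ↦ ⁅r, v⁆ kills commutators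
        let χ : P →* ↥(Subgroup.center P) :=
          { toFun := fun r => ⟨⁅r, (v : P)⁆, hv r⟩
            map_one' := Subtype.ext (commutatorElement_one_left _)
            map_mul' := fun r s => Subtype.ext (by
              show ⁅r * s, (v : P)⁆ = ⁅r, (v : P)⁆ * ⁅s, (v : P)⁆
              rw [← Subgroup.mem_center_iff.1 (hv r) ⁅s, (v : P)⁆]
              calc ⁅r * s, (v : P)⁆ = r * ⁅s, (v : P)⁆ * (v * r⁻¹ * (v : P)⁻¹) := by
                    simp only [commutatorElement_def]; group
                _ = ⁅s, (v : P)⁆ * r * (v * r⁻¹ * (v : P)⁻¹) := by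
                    rw [Subgroup.mem_center_iff.1 (hv s) r]
                _ = ⁅s, (v : P)⁆ * ⁅r, (v : P)⁆ := by simp only [commutatorElement_def]; group) }
        have h1 : χ ⁅p, q⁆ = 1 := by
          rw [map_commutatorElement, commutatorElement_eq_one_iff_mul_comm]
          exact Subtype.ext (Subgroup.mem_center_iff.1 (χ q).2 (χ p : P))
        rw [Subgroup.mem_centralizer_singleton_iff]
        exact commutatorElement_eq_one_iff_mul_comm.1 (congrArg Subtype.val h1)
      exact Subgroup.mem_centralizer_singleton_iff.1 (h (Subgroup.mem_inf.1 u.2).1)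
    have hAchar : A.Characteristic := by
      rw [Subgroup.characteristic_iff_le_comap]
      intro φ u hu
      obtain ⟨hu1, hu2⟩ := Subgroup.mem_inf.1 hu
      refine Subgroup.mem_inf.2 ⟨(Subgroup.characteristic_iff_le_comap.1
        (inferInstance : (commutator P).Characteristic) φ) hu1, ?_⟩
      show π (φ u) ∈ Subgroup.center _
      rw [Subgroup.mem_center_iff]
      intro q
      obtain ⟨p, rfl⟩ := QuotientGroup.mk'_surjective _ q
      obtain ⟨p, rfl⟩ := φ.surjective p
      rw [← map_mul, ← map_mul]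
      refine QuotientGroup.eq.2 ?_
      have := QuotientGroup.eq.1 ((map_mul π p u).trans
        ((Subgroup.mem_center_iff.1 hu2 (π p)).trans (map_mul π u p).symm) : _)
      have h' := (Subgroup.characteristic_iff_le_comap.1
        (inferInstance : (Subgroup.center P).Characteristic) φ) this
      simpa [map_mul, map_inv] using h'
    haveI hAcyc : IsCyclic ↥A := hsymp A hAchar hAab
    -- a has order four, its square is the central involution
    have haa : a * a ≠ 1 := by
      intro h
      -- otherwise a would be the involution of A, a central element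
      have hA : A ≠ ⊥ := fun hb => haZ (by
        have := hb ▸ haA
        rw [Subgroup.mem_bot] at this
        simp [this])
      obtain ⟨u, huA, huc, hu1⟩ := exists_central_mem hP A hA
      have ha1 : a ≠ 1 := fun e => haZ (by simp [e])
      by_cases hu2 : u * u = 1
      · have e : a = u := congrArg Subtype.val (sq_eq_one_eq (u := (⟨a, haA⟩ : ↥A)) (v := ⟨u, huA⟩)
          (Subtype.ext h) (Subtype.ext hu2) (fun e => ha1 (congrArg Subtype.val e))
          (fun e => hu1 (congrArg Subtype.val e)))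
        exact haZ (e ▸ huc)
      · have e : a = u * u := congrArg Subtype.val (sq_eq_one_eq (u := (⟨a, haA⟩ : ↥A)) (v := ⟨u * u, mul_mem huA huA⟩)
          (Subtype.ext h) (Subtype.ext (pow_four_eq h4 u)) (fun e => ha1 (congrArg Subtype.val e))
          (fun e => hu2 (congrArg Subtype.val e)))
        exact haZ (e ▸ mul_mem huc huc)
    -- every element of A is 1, a, a*a or their product
    have hconj : ∀ p : P, p * a * p⁻¹ = a ∨ p * a * p⁻¹ = a⁻¹ := by
      intro p
      have hb : p * a * p⁻¹ ∈ A := Subgroup.Normal.conj_mem inferInstance a haA p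
      have hb2 : (p * a * p⁻¹) * (p * a * p⁻¹) = a * a := by
        refine congrArg Subtype.val (sq_eq_one_eq (u := (⟨_, mul_mem hb hb⟩ : ↥A))
          (v := ⟨a * a, mul_mem haA haA⟩) (Subtype.ext (pow_four_eq h4 _))
          (Subtype.ext (pow_four_eq h4 _)) ?_ (fun e => haa (congrArg Subtype.val e)))
        intro e
        apply haa
        have := congrArg Subtype.val e
        calc a * a = p⁻¹ * ((p * a * p⁻¹) * (p * a * p⁻¹)) * p := by group
          _ = 1 := by rw [show (p * a * p⁻¹) * (p * a * p⁻¹) = 1 from this]; group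
      by_cases he : p * a * p⁻¹ = a
      · exact Or.inl he
      · right
        have hc : (p * a * p⁻¹) * a = a * (p * a * p⁻¹) :=
          congrArg Subtype.val (hAab.is_comm.comm (⟨_, hb⟩ : ↥A) ⟨a, haA⟩)
        have hd : (p * a * p⁻¹ * a⁻¹) * (p * a * p⁻¹ * a⁻¹) = 1 := by
          have hc' : a⁻¹ * (p * a * p⁻¹) = (p * a * p⁻¹) * a⁻¹ :=
            congrArg Subtype.val (hAab.is_comm.comm (⟨_, inv_mem haA⟩ : ↥A) ⟨_, hb⟩)
          calc (p * a * p⁻¹ * a⁻¹) * (p * a * p⁻¹ * a⁻¹)
              = (p * a * p⁻¹) * (a⁻¹ * (p * a * p⁻¹)) * a⁻¹ := by group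
            _ = ((p * a * p⁻¹) * (p * a * p⁻¹)) * a⁻¹ * a⁻¹ := by rw [hc']; group
            _ = 1 := by rw [hb2]; group
        have := congrArg Subtype.val (sq_eq_one_eq (u := (⟨_, mul_mem hb (inv_mem haA)⟩ : ↥A))
          (v := ⟨a * a, mul_mem haA haA⟩) (Subtype.ext hd) (Subtype.ext (pow_four_eq h4 _))
          (fun e => he (mul_inv_eq_one.1 (congrArg Subtype.val e))) (fun e => haa (congrArg Subtype.val e)))
        calc p * a * p⁻¹ = (p * a * p⁻¹ * a⁻¹) * a := by group
          _ = a * a * a := by rw [show p * a * p⁻¹ * a⁻¹ = a * a from this]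
          _ = a⁻¹ := by rw [eq_inv_iff_mul_eq_one, ← pow_four_eq h4 a]; group
    obtain ⟨x, hx⟩ : ∃ x, x * a * x⁻¹ = a⁻¹ ∧ x * a * x⁻¹ ≠ a := by
      by_contra hx
      push Not at hx
      apply haZ
      rw [Subgroup.mem_center_iff]
      intro p
      have he : p * a * p⁻¹ = a := by
        rcases hconj p with h | h
        · exact h
        · exact hx p h
      calc p * a = p * a * p⁻¹ * p := by group
        _ = a * p := by rw [he]
    -- the centraliser of A
    let C : Subgroup P := Subgroup.centralizer (A : Set P)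
    haveI := hAchar
    haveI hCchar : C.Characteristic := inferInstanceAs (Subgroup.centralizer (A : Set P)).Characteristic
    have hmemC : ∀ p : P, p * a * p⁻¹ = a → p ∈ C := by
      intro p hp
      rw [Subgroup.mem_centralizer_iff]
      intro b hb
      -- b is a power of a
      obtain ⟨⟨w, hwA⟩, hw⟩ := hAcyc.exists_generator
      obtain ⟨i, hi⟩ := hw ⟨a, haA⟩
      obtain ⟨j, hj⟩ := hw ⟨b, hb⟩
      have hwa : Subgroup.zpowers w = Subgroup.zpowers a := by
        apply le_antisymm
        · rw [Subgroup.zpowers_le]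
          have hi' : w ^ i = a := congrArg Subtype.val hi
          rcases Int.emod_two_eq_zero_or_one i with h | h
          · exfalso
            obtain ⟨k, rfl⟩ : ∃ k, i = 2 * k := ⟨i / 2, by omega⟩
            apply haa
            rw [← hi', ← zpow_add, show 2 * k + 2 * k = 4 * k by ring, zpow_mul,
              show w ^ (4 : ℤ) = 1 from (by exact_mod_cast h4 w), one_zpow]
          · obtain ⟨k, rfl⟩ : ∃ k, i = 2 * k + 1 := ⟨i / 2, by omega⟩
            refine ⟨2 * k + 1, ?_⟩
            show a ^ (2 * k + 1) = w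
            rw [← hi', ← zpow_mul, show (2 * k + 1) * (2 * k + 1) = 4 * (k * k + k) + 1 by ring,
              zpow_add, zpow_mul, show w ^ (4 : ℤ) = 1 from (by exact_mod_cast h4 w), one_zpow,
              one_mul, zpow_one]
        · rw [Subgroup.zpowers_le]
          exact ⟨i, congrArg Subtype.val hi⟩
      obtain ⟨k, hk⟩ : b ∈ Subgroup.zpowers a := hwa ▸ ⟨j, congrArg Subtype.val hj⟩
      have hpa : Commute p a := by
        calc p * a = p * a * p⁻¹ * p := by group
          _ = a * p := by rw [hp]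
      rw [← hk]
      exact (hpa.zpow_right k).eq.symm
    have hxC : x ∉ C := by
      intro h
      apply hx.2
      rw [← Subgroup.mem_centralizer_iff.1 h a haA]
      group
    have hsplit : ∀ p : P, p ∈ C ∨ x⁻¹ * p ∈ C := by
      intro p
      rcases hconj p with h | h
      · exact Or.inl (hmemC p h)
      · right
        apply hmemC
        calc x⁻¹ * p * a * (x⁻¹ * p)⁻¹ = x⁻¹ * (p * a * p⁻¹) * x := by group
          _ = x⁻¹ * (x * a * x⁻¹) * x := by rw [h, hx.1]
          _ = a := by group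
    -- induction inside C
    have hClt : Nat.card ↥C < n := by
      rw [← hn]
      refine lt_of_le_of_ne (Subgroup.card_le_card_group C) fun e => hxC ?_
      rw [Subgroup.eq_top_of_card_eq C e]; exact Subgroup.mem_top x
    obtain ⟨hCc, hCs, hCu⟩ := ih _ hClt ↥C rfl (hP.to_subgroup C)
      (fun c => Subtype.ext (by simp [h4 (c : P)])) (by
        intro B hB hBa
        have hBchar : (B.map C.subtype).Characteristic := by
          rw [Subgroup.characteristic_iff_map_eq]
          intro φ
          have hCφ : C.map φ.toMonoidHom = C := Subgroup.characteristic_iff_map_eq.1 hCchar φ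
          let ψ : ↥C ≃* ↥C := (φ.subgroupMap C).trans (MulEquiv.subgroupCongr hCφ)
          have := congrArg (Subgroup.map C.subtype) (Subgroup.characteristic_iff_map_eq.1 hB ψ)
          rw [Subgroup.map_map] at this ⊢
          exact this
        let e := B.equivMapOfInjective C.subtype C.subtype_injective
        have hcomm : IsMulCommutative ↥(B.map C.subtype) := ⟨⟨fun u v => e.symm.injective (by
          rw [map_mul, map_mul]; exact hBa.is_comm.comm _ _)⟩⟩
        haveI := hsymp _ hBchar hcomm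
        exact isCyclic_of_surjective e.symm.toMonoidHom e.symm.surjective)
    have haC : a ∈ C := hmemC a (by group)
    have haC' : (⟨a, haC⟩ : ↥C) ∈ Subgroup.center ↥C := by
      rw [Subgroup.mem_center_iff]
      intro c
      exact Subtype.ext (Subgroup.mem_centralizer_iff.1 c.2 a haA).symm
    -- squares in C lie in <a a>
    have hone : ∀ c : ↥C, c * c = 1 → c ∈ Subgroup.center ↥C → (c : P) = 1 ∨ (c : P) = a * a := by
      intro c hc hcc
      by_cases h1 : c = 1
      · exact Or.inl (congrArg Subtype.val h1)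
      · refine Or.inr (congrArg Subtype.val (hCu c (⟨a, haC⟩ * ⟨a, haC⟩) hcc (mul_mem haC' haC')
          hc ?_ h1 ?_))
        · exact Subtype.ext (pow_four_eq h4 a)
        · exact fun e => haa (congrArg Subtype.val e)
    have hsqz : ∀ c ∈ C, c * c = 1 ∨ c * c = a * a := fun c hc =>
      hone (⟨c, hc⟩ * ⟨c, hc⟩) (Subtype.ext (pow_four_eq h4 c)) (hCs _)
    have hcomz : ∀ c ∈ C, ∀ d ∈ C, ⁅c, d⁆ = 1 ∨ ⁅c, d⁆ = a * a := fun c hc d hd => by
      have := hone ⁅(⟨c, hc⟩ : ↥C), ⟨d, hd⟩⁆ (hCc _ _).2 (hCc _ _).1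
      simpa [commutatorElement_def] using this
    have hxz : x * (a * a) * x⁻¹ = a * a := by
      calc x * (a * a) * x⁻¹ = (x * a * x⁻¹) * (x * a * x⁻¹) := by group
        _ = a⁻¹ * a⁻¹ := by rw [hx.1]
        _ = (a * a) := by
          rw [← mul_inv_rev, inv_eq_iff_mul_eq_one]; exact pow_four_eq h4 a
    have hCn : ∀ c ∈ C, x * c * x⁻¹ ∈ C := fun c hc =>
      Subgroup.Normal.conj_mem inferInstance c hc x
    -- W = {δ c} * <a a>
    let τ : P → P := fun c => x * c * x⁻¹
    let Zs : Subgroup P := Subgroup.zpowers (a * a)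
    have hzs : ∀ w ∈ Zs, ∀ c ∈ C, c * w = w * c := by
      intro w hw c hc
      obtain ⟨i, rfl⟩ := hw
      have : Commute c (a * a) := Subgroup.mem_centralizer_iff.1 hc _ (mul_mem haA haA) |>.symm
      exact (this.zpow_right i).eq
    haveI hZsn : Zs.Normal := by
      refine ⟨fun w hw p => ?_⟩
      obtain ⟨i, rfl⟩ := hw
      have hp : p * (a * a) * p⁻¹ = a * a := by
        rcases hsplit p with h | h
        · rw [← hzs _ (Subgroup.mem_zpowers _) p h |>.symm]; group
        · calc p * (a * a) * p⁻¹ = x * ((x⁻¹ * p) * (a * a)) * (x⁻¹ * p)⁻¹ * x⁻¹ := by group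
            _ = x * ((a * a) * (x⁻¹ * p)) * (x⁻¹ * p)⁻¹ * x⁻¹ := by
                rw [hzs _ (Subgroup.mem_zpowers _) _ h]
            _ = x * (a * a) * x⁻¹ := by group
            _ = a * a := hxz
      exact ⟨i, by rw [← conj_zpow, hp]⟩
    let ρ := QuotientGroup.mk' Zs
    have hρC : ∀ c ∈ C, ∀ d ∈ C, ρ c * ρ d = ρ d * ρ c := by
      intro c hc d hd
      rw [← commutatorElement_eq_one_iff_mul_comm, ← map_commutatorElement]
      refine (QuotientGroup.eq_one_iff _).2 ?_
      rcases hcomz c hc d hd with h | h <;> rw [h]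
      · exact one_mem _
      · exact Subgroup.mem_zpowers _
    let Cb : Subgroup (P ⧸ Zs) := C.map ρ
    let δ : ↥C →* P ⧸ Zs :=
      { toFun := fun c => ρ (τ c) * (ρ c)⁻¹
        map_one' := by simp [τ]
        map_mul' := by
          intro c d
          have h1 : τ ((c : P) * d) = τ c * τ d := by simp [τ, mul_assoc]
          show ρ (τ ((c : P) * d)) * (ρ ((c : P) * d))⁻¹ =
            (ρ (τ c) * (ρ c)⁻¹) * (ρ (τ d) * (ρ d)⁻¹)
          have e1 : Commute (ρ (c : P)) (ρ (τ d)) := hρC _ c.2 _ (hCn _ d.2)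
          have e2 : Commute (ρ (c : P)) (ρ (d : P)) := hρC _ c.2 _ d.2
          rw [h1, map_mul ρ (τ (c : P)), map_mul ρ (c : P) (d : P)]
          calc ρ (τ c) * ρ (τ d) * (ρ c * ρ d)⁻¹
              = ρ (τ c) * (ρ (τ d) * (ρ d)⁻¹ * (ρ c)⁻¹) := by group
            _ = ρ (τ c) * ((ρ c)⁻¹ * (ρ (τ d) * (ρ d)⁻¹)) := by
                rw [((e1.mul_right e2.inv_right).inv_left).eq]
            _ = _ := by group }
    have hδ : ∀ c : ↥C, δ c = ⁅ρ x, ρ (c : P)⁆ := fun c => by
      show ρ (τ c) * (ρ c)⁻¹ = _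
      simp [τ, commutatorElement_def, map_mul]
    have hW : ∀ p q : P, ρ ⁅p, q⁆ ∈ δ.range := by
      have hcc : ∀ c ∈ C, ∀ d ∈ C, ⁅ρ c, ρ d⁆ = 1 := fun c hc d hd =>
        commutatorElement_eq_one_iff_mul_comm.2 (hρC c hc d hd)
      have hτ : ∀ c ∈ C, ρ x * ρ c * (ρ x)⁻¹ ∈ Cb := fun c hc =>
        ⟨τ c, hCn c hc, by simp [τ, map_mul]⟩
      have hxx : x * x ∈ C := by
        rcases hsplit (x * x) with h | h
        · exact h
        · exact absurd (by simpa using h) hxC
      intro p q
      rw [map_commutatorElement]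
      rcases hsplit p with hp | hp <;> rcases hsplit q with hq | hq
      · rw [hcc p hp q hq]; exact one_mem _
      · obtain ⟨d, hd, rfl⟩ : ∃ d ∈ C, q = x * d := ⟨x⁻¹ * q, hq, by group⟩
        have hd' : ρ p * ρ d = ρ d * ρ p := hρC p hp d hd
        have : ⁅ρ p, ρ (x * d)⁆ = (δ ⟨p, hp⟩)⁻¹ := by
          rw [hδ, commutatorElement_inv, map_mul]
          calc ⁅ρ p, ρ x * ρ d⁆ = ρ p * ρ x * (ρ d * (ρ p)⁻¹) * (ρ d)⁻¹ * (ρ x)⁻¹ := by
                simp only [commutatorElement_def]; group
            _ = ρ p * ρ x * ((ρ p)⁻¹ * ρ d) * (ρ d)⁻¹ * (ρ x)⁻¹ := by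
                rw [(Commute.inv_right (show Commute (ρ d) (ρ p) from hd'.symm)).eq]
            _ = ⁅ρ p, ρ x⁆ := by simp only [commutatorElement_def]; group
        rw [this]; exact inv_mem ⟨_, rfl⟩
      · obtain ⟨c, hc, rfl⟩ : ∃ c ∈ C, p = x * c := ⟨x⁻¹ * p, hp, by group⟩
        have hd' : ρ c * ρ q = ρ q * ρ c := hρC c hc q hq
        have : ⁅ρ (x * c), ρ q⁆ = δ ⟨q, hq⟩ := by
          rw [hδ, map_mul]
          calc ⁅ρ x * ρ c, ρ q⁆ = ρ x * (ρ c * ρ q) * (ρ c)⁻¹ * (ρ x)⁻¹ * (ρ q)⁻¹ := by
                simp only [commutatorElement_def]; group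
            _ = ⁅ρ x, ρ q⁆ := by rw [hd']; simp only [commutatorElement_def]; group
        rw [this]; exact ⟨_, rfl⟩
      · obtain ⟨c, hc, rfl⟩ : ∃ c ∈ C, p = x * c := ⟨x⁻¹ * p, hp, by group⟩
        obtain ⟨d, hd, rfl⟩ : ∃ d ∈ C, q = x * d := ⟨x⁻¹ * q, hq, by group⟩
        -- equals the image of x c x⁻¹ c⁻¹ times the inverse image of d
        refine ⟨⟨c * d⁻¹, mul_mem hc (inv_mem hd)⟩, ?_⟩
        rw [hδ]
        simp only [map_mul, map_inv]
        have e3 : Commute (ρ x * ρ x) (ρ d * (ρ c)⁻¹) := by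
          have := hρC _ hxx _ (mul_mem hd (inv_mem hc))
          simp only [map_mul, map_inv] at this
          exact this
        have e4 : Commute (ρ d * (ρ c)⁻¹) (ρ x * (ρ d)⁻¹ * (ρ x)⁻¹) := by
          have := hρC _ (mul_mem hd (inv_mem hc)) _ (hCn _ (inv_mem hd))
          simp only [map_mul, map_inv] at this
          exact this
        symm
        calc ⁅ρ x * ρ c, ρ x * ρ d⁆ = (ρ x * ρ c * (ρ x)⁻¹) *
              (((ρ x * ρ x) * (ρ d * (ρ c)⁻¹) * (ρ x * ρ x)⁻¹) *
                (ρ x * (ρ d)⁻¹ * (ρ x)⁻¹)) := by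
              simp only [commutatorElement_def]; group
          _ = (ρ x * ρ c * (ρ x)⁻¹) * ((ρ d * (ρ c)⁻¹) * (ρ x * (ρ d)⁻¹ * (ρ x)⁻¹)) := by
              rw [e3.eq, mul_inv_cancel_right]
          _ = (ρ x * ρ c * (ρ x)⁻¹) * ((ρ x * (ρ d)⁻¹ * (ρ x)⁻¹) * (ρ d * (ρ c)⁻¹)) := by rw [e4.eq]
          _ = ⁅ρ x, ρ c * (ρ d)⁻¹⁆ := by simp only [commutatorElement_def]; group
    have hmem : ρ a ∈ δ.range := by
      have : commutator P ≤ δ.range.comap ρ := by
        rw [commutator_def, Subgroup.commutator_le]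
        exact fun p _ q _ => hW p q
      exact this haP
    obtain ⟨c, hc⟩ := hmem
    have hc' : x * (c : P) * x⁻¹ * (c : P)⁻¹ * a⁻¹ ∈ Zs := by
      refine (QuotientGroup.eq_one_iff _).1 ?_
      show ρ (x * (c : P) * x⁻¹ * (c : P)⁻¹ * a⁻¹) = 1
      rw [map_mul, map_inv, mul_inv_eq_one, ← hc, hδ]
      simp [commutatorElement_def, map_mul]
    set w := x * (c : P) * x⁻¹ * (c : P)⁻¹ * a⁻¹ with hw
    have hww : w * w = 1 := by
      obtain ⟨i, hi⟩ := hc'
      rw [← hi]
      show (a * a) ^ i * (a * a) ^ i = 1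
      rw [← (Commute.refl (a * a)).mul_zpow, pow_four_eq h4, one_zpow]
    have hxc : x * (c : P) * x⁻¹ = w * a * c := by rw [hw]; group
    have hlhs : x * ((c : P) * c) * x⁻¹ = (c : P) * c := by
      rcases hsqz c c.2 with h | h <;> rw [h]
      · group
      · exact hxz
    have hrhs : x * ((c : P) * c) * x⁻¹ = a * a * ((c : P) * c) := by
      have hwc : (c : P) * w = w * c := hzs w hc' c c.2
      have hca : (c : P) * a = a * c := (Subgroup.mem_centralizer_iff.1 c.2 a haA).symm
      have hwa : a * w = w * a := hzs w hc' a haC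
      calc x * ((c : P) * c) * x⁻¹ = (x * (c : P) * x⁻¹) * (x * (c : P) * x⁻¹) := by group
        _ = w * a * ((c : P) * w) * a * c := by rw [hxc]; group
        _ = w * (a * w) * ((c : P) * a) * c := by rw [hwc]; group
        _ = w * w * (a * a) * ((c : P) * c) := by rw [hwa, hca]; group
        _ = _ := by rw [hww, one_mul]
    exact haa (mul_eq_right.1 (hrhs.symm.trans hlhs))

/-- 2-groups of symplectic type and exponent dividing four. -/
theorem isNearExtraspecial_of_symplecticType {P : Type*} [Group P] [Finite P]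
    (h : IsOfSymplecticType P) (h4 : ∀ p : P, p ^ 4 = 1) : IsNearExtraspecial P :=
  isNearExtraspecial_aux _ P rfl h.1 h4 h.2

end CfsgLib.SymplecticType
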